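import Mathlib
import Cfsg.Agent.Lib.Helper96.AltStmt2

set_option autoImplicit false

/-!
# S5165, piece MR: `N_S(R2)` is a maximal `p`-subgroup of `N(R2)`
-/

namespace Cfsg.Agent.H84.AltMR

open Equiv Cfsg.Agent.Lib.Helper96.AltStmt Cfsg.Agent.Lib.Helper96.AltModel
  Cfsg.Agent.Lib.Helper96.AltStmt2

section

variable (p : ℕ) [Fact p.Prime] {Γ Λ E : Type}

/-- the linear group of `ZMod p × ZMod p` -/
abbrev GLV := (ZMod p × ZMod p) ≃ₗ[ZMod p] (ZMod p × ZMod p)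

theorem mem_normalizer_of {G : Type} [Group G] (H : Subgroup G) (g : G)
    (h1 : ∀ x ∈ H, g * x * g⁻¹ ∈ H) (h2 : ∀ x ∈ H, g⁻¹ * x * g ∈ H) :
    g ∈ Subgroup.normalizer (H : Set G) := by
  rw [Subgroup.mem_normalizer_iff]
  intro x
  refine ⟨h1 x, fun hx => ?_⟩
  have := h2 _ hx
  have e : g⁻¹ * (g * x * g⁻¹) * g = x := by group
  rwa [e] at this

/-! ### superblock permutation -/

/-- `g` maps the superblock `γ` into the superblock `π γ` -/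
def Rel1 (g : Perm (Pt p Γ Λ E)) (π : Perm Γ) : Prop :=
  ∀ γ i j, ∃ i' j', g (Sum.inl (Sum.inl (γ, i), j)) = Sum.inl (Sum.inl (π γ, i'), j')

theorem rel1_one : Rel1 p (1 : Perm (Pt p Γ Λ E)) 1 := fun _ i j => ⟨i, j, rfl⟩

theorem rel1_mul {g g' : Perm (Pt p Γ Λ E)} {π π' : Perm Γ} (h : Rel1 p g π)
    (h' : Rel1 p g' π') : Rel1 p (g * g') (π * π') := by
  intro γ i j
  obtain ⟨i', j', e'⟩ := h' γ i j
  obtain ⟨i'', j'', e''⟩ := h (π' γ) i' j'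
  exact ⟨i'', j'', by rw [Perm.mul_apply, e', e'']; rfl⟩

theorem rel1_pow {g : Perm (Pt p Γ Λ E)} {π : Perm Γ} (h : Rel1 p g π) (m : ℕ) :
    Rel1 p (g ^ m) (π ^ m) := by
  induction m with
  | zero => simpa using rel1_one p
  | succ m ih => rw [pow_succ, pow_succ]; exact rel1_mul p ih h

theorem rel1_unique {g : Perm (Pt p Γ Λ E)} {π π' : Perm Γ} (h : Rel1 p g π)
    (h' : Rel1 p g π') : π = π' := by
  ext γ
  obtain ⟨i', j', e'⟩ := h γ 0 0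
  obtain ⟨i'', j'', e''⟩ := h' γ 0 0
  rw [e'] at e''
  simp only [Sum.inl.injEq, Prod.mk.injEq] at e''
  exact e''.1.1

/-- the group of superblock permutations induced by `P` -/
def Q1 (P : Subgroup (Perm (Pt p Γ Λ E))) (hnf : ∀ g ∈ P, ∃ π : Perm Γ, Rel1 p g π) :
    Subgroup (Perm Γ) where
  carrier := {π | ∃ g ∈ P, Rel1 p g π}
  mul_mem' := by
    rintro π π' ⟨g, hg, h⟩ ⟨g', hg', h'⟩
    exact ⟨g * g', P.mul_mem hg hg', rel1_mul p h h'⟩
  one_mem' := ⟨1, P.one_mem, rel1_one p⟩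
  inv_mem' := by
    rintro π ⟨g, hg, h⟩
    obtain ⟨π', h'⟩ := hnf g⁻¹ (P.inv_mem hg)
    have h1 := rel1_mul p h h'
    rw [mul_inv_cancel] at h1
    have e : π * π' = 1 := rel1_unique p h1 (rel1_one p)
    have e' : π⁻¹ = π' := inv_eq_of_mul_eq_one_right e
    exact ⟨g⁻¹, P.inv_mem hg, e' ▸ h'⟩

/-! ### the remaining blocks -/

/-- `g` maps the block `l` into the block `ρ l` -/
def Rel2 (g : Perm (Pt p Γ Λ E)) (ρ : Perm Λ) : Prop :=
  ∀ l j, ∃ j', g (Sum.inl (Sum.inr l, j)) = Sum.inl (Sum.inr (ρ l), j')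

theorem rel2_one : Rel2 p (1 : Perm (Pt p Γ Λ E)) 1 := fun _ j => ⟨j, rfl⟩

theorem rel2_mul {g g' : Perm (Pt p Γ Λ E)} {ρ ρ' : Perm Λ} (h : Rel2 p g ρ)
    (h' : Rel2 p g' ρ') : Rel2 p (g * g') (ρ * ρ') := by
  intro l j
  obtain ⟨j', e'⟩ := h' l j
  obtain ⟨j'', e''⟩ := h (ρ' l) j'
  exact ⟨j'', by rw [Perm.mul_apply, e', e'']; rfl⟩

theorem rel2_pow {g : Perm (Pt p Γ Λ E)} {ρ : Perm Λ} (h : Rel2 p g ρ) (m : ℕ) :
    Rel2 p (g ^ m) (ρ ^ m) := by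
  induction m with
  | zero => simpa using rel2_one p
  | succ m ih => rw [pow_succ, pow_succ]; exact rel2_mul p ih h

theorem rel2_unique [Nonempty (ZMod p)] {g : Perm (Pt p Γ Λ E)} {ρ ρ' : Perm Λ} (h : Rel2 p g ρ)
    (h' : Rel2 p g ρ') : ρ = ρ' := by
  ext l
  obtain ⟨j', e'⟩ := h l 0
  obtain ⟨j'', e''⟩ := h' l 0
  rw [e'] at e''
  simp only [Sum.inl.injEq, Prod.mk.injEq, Sum.inr.injEq] at e''
  exact e''.1

/-- `g` acts on the block `l` as `j ↦ t l * j + b l` -/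
def Rel3 (g : Perm (Pt p Γ Λ E)) (t : Λ → ZMod p) : Prop :=
  ∃ b : Λ → ZMod p, ∀ l j, g (Sum.inl (Sum.inr l, j)) = Sum.inl (Sum.inr l, t l * j + b l)

theorem rel3_one : Rel3 p (1 : Perm (Pt p Γ Λ E)) 1 :=
  ⟨0, fun l j => by simp⟩

theorem rel3_mul {g g' : Perm (Pt p Γ Λ E)} {t t' : Λ → ZMod p} (h : Rel3 p g t)
    (h' : Rel3 p g' t') : Rel3 p (g * g') (t * t') := by
  obtain ⟨b, hb⟩ := h
  obtain ⟨b', hb'⟩ := h'
  refine ⟨fun l => t l * b' l + b l, fun l j => ?_⟩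
  rw [Perm.mul_apply, hb', hb]
  congr 2
  simp only [Pi.mul_apply]
  ring

theorem rel3_pow {g : Perm (Pt p Γ Λ E)} {t : Λ → ZMod p} (h : Rel3 p g t) (m : ℕ) :
    Rel3 p (g ^ m) (t ^ m) := by
  induction m with
  | zero => simpa using rel3_one p
  | succ m ih => rw [pow_succ, pow_succ]; exact rel3_mul p ih h

theorem rel3_eq_one {t : Λ → ZMod p} (h : Rel3 p (1 : Perm (Pt p Γ Λ E)) t) (l : Λ) :
    t l = 1 := by
  obtain ⟨b, hb⟩ := h
  have h0 := hb l 0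
  have h1 := hb l 1
  simp only [Perm.one_apply, Sum.inl.injEq, Prod.mk.injEq, mul_zero, zero_add, mul_one,
    true_and] at h0 h1
  rw [← h0, add_zero] at h1
  exact h1.symm

/-! ### the linear part on a superblock -/

/-- `g` acts on the superblock `γ` as `x ↦ A x + w` -/
def Rel4 (γ : Γ) (g : Perm (Pt p Γ Λ E)) (A : GLV p) : Prop :=
  ∃ w : ZMod p × ZMod p, ∀ i j, g (Sum.inl (Sum.inl (γ, i), j)) =
    Sum.inl (Sum.inl (γ, (A (i, j) + w).1), (A (i, j) + w).2)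

theorem rel4_one (γ : Γ) : Rel4 p γ (1 : Perm (Pt p Γ Λ E)) 1 :=
  ⟨0, fun i j => by simp⟩

theorem rel4_mul {γ : Γ} {g g' : Perm (Pt p Γ Λ E)} {A A' : GLV p} (h : Rel4 p γ g A)
    (h' : Rel4 p γ g' A') : Rel4 p γ (g * g') (A * A') := by
  obtain ⟨w, hw⟩ := h
  obtain ⟨w', hw'⟩ := h'
  refine ⟨A w' + w, fun i j => ?_⟩
  rw [Perm.mul_apply, hw', hw]
  have e : A ((A' (i, j) + w').1, (A' (i, j) + w').2) + w = (A * A') (i, j) + (A w' + w) := by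
    rw [Prod.mk.eta, map_add, LinearEquiv.mul_apply, add_assoc]
  rw [e]

theorem rel4_inv {γ : Γ} {g : Perm (Pt p Γ Λ E)} {A : GLV p} (h : Rel4 p γ g A) :
    Rel4 p γ g⁻¹ A⁻¹ := by
  obtain ⟨w, hw⟩ := h
  refine ⟨-(A⁻¹ w), fun i j => ?_⟩
  rw [Perm.inv_eq_iff_eq, hw]
  have e1 : ∀ x, A (A⁻¹ x) = x := fun x => by
    rw [← LinearEquiv.mul_apply, mul_inv_cancel]
    rfl
  have e : A ((A⁻¹ (i, j) + -(A⁻¹ w)).1, (A⁻¹ (i, j) + -(A⁻¹ w)).2) + w = (i, j) := by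
    rw [Prod.mk.eta, map_add, map_neg, e1, e1, neg_add_cancel_right]
  rw [e]

theorem rel4_pow {γ : Γ} {g : Perm (Pt p Γ Λ E)} {A : GLV p} (h : Rel4 p γ g A) (m : ℕ) :
    Rel4 p γ (g ^ m) (A ^ m) := by
  induction m with
  | zero => simpa using rel4_one p γ
  | succ m ih => rw [pow_succ, pow_succ]; exact rel4_mul p ih h

theorem rel4_eq_one {γ : Γ} {A : GLV p} (h : Rel4 p γ (1 : Perm (Pt p Γ Λ E)) A) : A = 1 := by
  obtain ⟨w, hw⟩ := h
  have hx : ∀ i j, A (i, j) + w = (i, j) := by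
    intro i j
    have := hw i j
    simp only [Perm.one_apply, Sum.inl.injEq, Prod.mk.injEq, true_and] at this
    exact Prod.ext this.1.symm this.2.symm
  have hw0 : w = 0 := by
    have := hx 0 0
    rw [show ((0 : ZMod p), (0 : ZMod p)) = 0 from rfl, map_zero, zero_add] at this
    exact this
  apply LinearEquiv.ext
  intro x
  have := hx x.1 x.2
  rw [hw0, add_zero, Prod.mk.eta] at this
  rw [this]
  rfl

/-- the group of linear parts on the superblock `γ` induced by `P` -/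
def QG (P : Subgroup (Perm (Pt p Γ Λ E))) (γ : Γ) : Subgroup (GLV p) where
  carrier := {A | ∃ g ∈ P, Rel4 p γ g A}
  mul_mem' := by
    rintro A A' ⟨g, hg, h⟩ ⟨g', hg', h'⟩
    exact ⟨g * g', P.mul_mem hg hg', rel4_mul p h h'⟩
  one_mem' := ⟨1, P.one_mem, rel4_one p γ⟩
  inv_mem' := by
    rintro A ⟨g, hg, h⟩
    exact ⟨g⁻¹, P.inv_mem hg, rel4_inv p h⟩

/-- the shear `(i, j) ↦ (i, j + i)` -/
def shE : GLV p where
  toFun x := (x.1, x.2 + x.1)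
  invFun x := (x.1, x.2 - x.1)
  map_add' x y := by
    refine Prod.ext rfl ?_
    show (x + y).2 + (x + y).1 = x.2 + x.1 + (y.2 + y.1)
    simp only [Prod.fst_add, Prod.snd_add]
    ring
  map_smul' c x := by
    refine Prod.ext rfl ?_
    show (c • x).2 + (c • x).1 = c • (x.2 + x.1)
    simp only [Prod.smul_fst, Prod.smul_snd, smul_eq_mul]
    ring
  left_inv x := by simp
  right_inv x := by simp

theorem shE_apply (i j : ZMod p) : shE p (i, j) = (i, j + i) := rfl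

/-! ### the lift of a permutation of the superblocks -/

/-- the lift of `π` -/
def lift (π : Perm Γ) : Perm (Pt p Γ Λ E) :=
  mk p E (mk p Λ π (fun _ => 1) (fun _ => 0)) (fun _ => 1) (fun _ => 0)

theorem lift_sb (π : Perm Γ) (γ : Γ) (i j : ZMod p) :
    lift p π (Sum.inl (Sum.inl (γ, i), j) : Pt p Γ Λ E) = Sum.inl (Sum.inl (π γ, i), j) := by
  simp [lift]

theorem lift_lb (π : Perm Γ) (l : Λ) (j : ZMod p) :
    lift p π (Sum.inl (Sum.inr l, j) : Pt p Γ Λ E) = Sum.inl (Sum.inr l, j) := by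
  simp [lift]

theorem lift_inr (π : Perm Γ) (x : E) :
    lift p π (Sum.inr x : Pt p Γ Λ E) = Sum.inr x := rfl

theorem lift_mem_S0 (P₂ : Subgroup (Perm Γ)) {π : Perm Γ} (hπ : π ∈ P₂) :
    (lift p π : Perm (Pt p Γ Λ E)) ∈ S0 p Λ E P₂ :=
  ⟨mk p Λ π (fun _ => 1) (fun _ => 0), ⟨π, hπ, _, rfl⟩, _, rfl⟩

theorem lift_conj (π : Perm Γ) (e f : Γ → ZMod p) (h : Λ → ZMod p) :
    (lift p π : Perm (Pt p Γ Λ E)) * r2 p Λ E e f h =
      r2 p Λ E (fun γ => e (π⁻¹ γ)) (fun γ => f (π⁻¹ γ)) h * lift p π := by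
  ext x
  rcases x with ⟨⟨γ, i⟩ | l, j⟩ | x
  · simp only [Perm.mul_apply, r2_inl_inl, lift_sb, Perm.coe_inv, symm_apply_apply]
  · simp only [Perm.mul_apply, r2_inl_inr, lift_lb]
  · simp only [Perm.mul_apply, r2_inr, lift_inr]

theorem lift_mem_normalizer (π : Perm Γ) :
    (lift p π : Perm (Pt p Γ Λ E)) ∈
      Subgroup.normalizer (R2 p Γ Λ E : Set (Perm (Pt p Γ Λ E))) := by
  apply mem_normalizer_of
  · rintro _ ⟨e, f, h, rfl⟩
    rw [lift_conj, mul_inv_cancel_right]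
    exact ⟨_, _, _, rfl⟩
  · rintro _ ⟨e, f, h, rfl⟩
    have := lift_conj (Λ := Λ) (E := E) p π (fun γ => e (π γ)) (fun γ => f (π γ)) h
    simp only [Perm.coe_inv, apply_symm_apply] at this
    rw [mul_assoc, ← this, inv_mul_cancel_left]
    exact ⟨_, _, _, rfl⟩

/-! ### the shear of a superblock -/

/-- the shear of the superblock `γ` -/
def shr [DecidableEq Γ] (γ : Γ) : Perm (Pt p Γ Λ E) :=
  mk p E (1 : Perm (Blk p Γ Λ)) (fun _ => 1)
    (Sum.elim (fun y => if y.1 = γ then y.2 else 0) (fun _ => 0))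

theorem shr_sb [DecidableEq Γ] (γ γ' : Γ) (i j : ZMod p) :
    shr p γ (Sum.inl (Sum.inl (γ', i), j) : Pt p Γ Λ E) =
      Sum.inl (Sum.inl (γ', i), j + if γ' = γ then i else 0) := by
  simp [shr]

theorem shr_lb [DecidableEq Γ] (γ : Γ) (l : Λ) (j : ZMod p) :
    shr p γ (Sum.inl (Sum.inr l, j) : Pt p Γ Λ E) = Sum.inl (Sum.inr l, j) := by
  simp [shr]

theorem shr_inr [DecidableEq Γ] (γ : Γ) (x : E) :
    shr p γ (Sum.inr x : Pt p Γ Λ E) = Sum.inr x := rfl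

theorem shr_mem_S0 [DecidableEq Γ] (γ : Γ) (P₂ : Subgroup (Perm Γ)) :
    (shr p γ : Perm (Pt p Γ Λ E)) ∈ S0 p Λ E P₂ :=
  ⟨1, ⟨1, P₂.one_mem, fun _ => 0, (mk_one p).symm⟩, _, rfl⟩

theorem shr_conj [DecidableEq Γ] (γ : Γ) (e f : Γ → ZMod p) (h : Λ → ZMod p) :
    (shr p γ : Perm (Pt p Γ Λ E)) * r2 p Λ E e f h =
      r2 p Λ E e (fun γ' => f γ' + if γ' = γ then e γ' else 0) h * shr p γ := by
  ext x
  rcases x with ⟨⟨γ', i⟩ | l, j⟩ | x
  · simp only [Perm.mul_apply, r2_inl_inl, shr_sb]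
    by_cases hγ : γ' = γ
    · simp only [hγ, if_true]
      congr 2
      ring
    · simp only [hγ, if_false, add_zero]
  · simp only [Perm.mul_apply, r2_inl_inr, shr_lb]
  · simp only [Perm.mul_apply, r2_inr, shr_inr]

theorem shr_mem_normalizer [DecidableEq Γ] (γ : Γ) :
    (shr p γ : Perm (Pt p Γ Λ E)) ∈
      Subgroup.normalizer (R2 p Γ Λ E : Set (Perm (Pt p Γ Λ E))) := by
  apply mem_normalizer_of
  · rintro _ ⟨e, f, h, rfl⟩
    rw [shr_conj, mul_inv_cancel_right]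
    exact ⟨_, _, _, rfl⟩
  · rintro _ ⟨e, f, h, rfl⟩
    have := shr_conj (Λ := Λ) (E := E) p γ e (fun γ' => f γ' - if γ' = γ then e γ' else 0) h
    have e2 : (fun γ' => (f γ' - if γ' = γ then e γ' else 0) + if γ' = γ then e γ' else 0) = f := by
      funext γ'
      ring
    rw [e2] at this
    rw [mul_assoc, ← this, inv_mul_cancel_left]
    exact ⟨_, _, _, rfl⟩

end

/-- piece MR -/
theorem main : MaxR2 := by
  intro hN2 hSG p _ hp2 Γ Λ E _ _ _ _ _ _ _ hΛ P₂ hP₂ hmax P hP hPN hSP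
  have hlift : ∀ π ∈ P₂, (lift p π : Perm (Pt p Γ Λ E)) ∈ P := fun π hπ =>
    hSP ⟨lift_mem_S0 p P₂ hπ, lift_mem_normalizer p π⟩
  have hshr : ∀ γ : Γ, (shr p γ : Perm (Pt p Γ Λ E)) ∈ P := fun γ =>
    hSP ⟨shr_mem_S0 p γ P₂, shr_mem_normalizer p γ⟩
  have hnf := fun (g : Perm (Pt p Γ Λ E)) (hg : g ∈ P) => hN2 p Γ Λ E g (hPN hg)
  have hnf1 : ∀ g ∈ P, ∃ π : Perm Γ, Rel1 p g π := by
    intro g hg
    obtain ⟨π, M, v, ρ, t, b, h1, -, -⟩ := hnf g hg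
    exact ⟨π, fun γ i j => ⟨_, _, h1 γ i j⟩⟩
  have hpow : ∀ g ∈ P, ∃ k : ℕ, g ^ p ^ k = 1 := by
    intro g hg
    obtain ⟨k, hk⟩ := hP ⟨g, hg⟩
    exact ⟨k, by simpa using congrArg Subtype.val hk⟩
  -- the superblock permutations form a `p`-group containing `P₂`
  have hQ1 : IsPGroup p (Q1 p P hnf1) := by
    rintro ⟨π, g, hg, hr⟩
    obtain ⟨k, hk⟩ := hpow g hg
    refine ⟨k, Subtype.ext ?_⟩
    have h := rel1_pow p hr (p ^ k)
    rw [hk] at h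
    exact rel1_unique p h (rel1_one p)
  have hP₂Q1 : P₂ ≤ Q1 p P hnf1 := fun π hπ =>
    ⟨lift p π, hlift π hπ, fun γ i j => ⟨i, j, lift_sb p π γ i j⟩⟩
  have hQ1P₂ : Q1 p P hnf1 ≤ P₂ := hmax _ hQ1 hP₂Q1
  intro g₀ hg₀
  obtain ⟨π₀, hπ₀⟩ := hnf1 g₀ hg₀
  have hπ₀P : π₀ ∈ P₂ := hQ1P₂ ⟨g₀, hg₀, hπ₀⟩
  suffices hs : g₀ * (lift p π₀)⁻¹ ∈ S0 p Λ E P₂ by
    have := (S0 p Λ E P₂).mul_mem hs (lift_mem_S0 p P₂ hπ₀P)
    rwa [inv_mul_cancel_right] at this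
  have hg : g₀ * (lift p π₀)⁻¹ ∈ P := P.mul_mem hg₀ (P.inv_mem (hlift π₀ hπ₀P))
  have hg1 : Rel1 p (g₀ * (lift p π₀)⁻¹) (1 : Perm Γ) := by
    obtain ⟨π', hπ'⟩ := hnf1 _ hg
    have h := rel1_mul p hπ' (fun γ i j => ⟨i, j, lift_sb p π₀ γ i j⟩ : Rel1 p (lift p π₀) π₀)
    rw [inv_mul_cancel_right] at h
    have e : π' * π₀ = π₀ := rel1_unique p h hπ₀
    have e' : π' = 1 := by
      have := congrArg (· * π₀⁻¹) e
      simpa using this
    rwa [e'] at hπ'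
  generalize g₀ * (lift p π₀)⁻¹ = g at hg hg1 ⊢
  obtain ⟨π, M, v, ρ, t, b, h1, h2, h3⟩ := hnf g hg
  have hπ : π = 1 := rel1_unique p (fun γ i j => ⟨_, _, h1 γ i j⟩) hg1
  subst hπ
  obtain ⟨k, hk⟩ := hpow g hg
  -- `ρ = 1`
  have hρ : ρ = 1 := by
    have hr : Rel2 p g ρ := fun l j => ⟨_, h2 l j⟩
    have h := rel2_pow p hr (p ^ k)
    rw [hk] at h
    have hρk : ρ ^ p ^ k = 1 := rel2_unique p h (rel2_one p)
    have hd1 : orderOf ρ ∣ p ^ k := orderOf_dvd_of_pow_eq_one hρk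
    have hd2 : orderOf ρ ∣ (Fintype.card Λ).factorial := by
      have := orderOf_dvd_card (x := ρ)
      rwa [Fintype.card_perm] at this
    have hcop : Nat.Coprime (p ^ k) (Fintype.card Λ).factorial := by
      apply Nat.Coprime.pow_left
      rw [Nat.Prime.coprime_iff_not_dvd (Fact.out : p.Prime),
        Nat.Prime.dvd_factorial (Fact.out : p.Prime)]
      omega
    exact orderOf_eq_one_iff.mp (Nat.eq_one_of_dvd_coprimes hcop hd1 hd2)
  subst hρ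
  -- `t = 1`
  have ht : ∀ l, (t l : ZMod p) = 1 := by
    have hr : Rel3 p g (fun l => (t l : ZMod p)) := ⟨b, fun l j => h2 l j⟩
    have h := rel3_pow p hr (p ^ k)
    rw [hk] at h
    intro l
    have := rel3_eq_one p h l
    simp only [Pi.pow_apply] at this
    rwa [ZMod.pow_card_pow] at this
  -- the linear parts are shears
  have hM : ∀ γ, ∃ c : ZMod p, ∀ i j, M γ (i, j) = (i, j + c * i) := by
    intro γ
    have hQ : IsPGroup p (QG p P γ) := by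
      rintro ⟨A, g', hg', hr⟩
      obtain ⟨k', hk'⟩ := hpow g' hg'
      refine ⟨k', Subtype.ext ?_⟩
      have h := rel4_pow p hr (p ^ k')
      rw [hk'] at h
      exact rel4_eq_one p h
    refine hSG p (QG p P γ) hQ ⟨shE p, ⟨shr p γ, hshr γ, 0, fun i j => ?_⟩, fun i j => rfl⟩
      (M γ) ⟨g, hg, v γ, fun i j => h1 γ i j⟩
    rw [shr_sb]
    simp [shE_apply]
  choose c hc using hM
  refine ⟨mk p Λ 1 (fun _ => 1) (fun γ => (v γ).1), ⟨1, P₂.one_mem, _, rfl⟩,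
    Sum.elim (fun y => c y.1 * y.2 + (v y.1).2) b, ?_⟩
  ext x
  rcases x with ⟨⟨γ, i⟩ | l, j⟩ | x
  · rw [h1 γ i j, hc γ i j]
    simp only [mk_inl, Perm.one_apply, Units.val_one, one_mul, Sum.elim_inl, Prod.fst_add,
      Prod.snd_add, add_assoc]
  · rw [h2 l j, ht l]
    simp only [mk_inl, mk_inr, Perm.one_apply, Units.val_one, one_mul, Sum.elim_inr]
  · rw [h3 x]
    rfl

end Cfsg.Agent.H84.AltMR
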