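import Mathlib
import Cfsg.Agent.H84.PslStmt
import Cfsg.Agent.Lib.Helper18.Conj

set_option autoImplicit false

/-!
# S5163, piece P3: a nontrivial normal subgroup of `Ubar` meets the highest root group
-/

namespace Cfsg.Agent.H84.PslP3

open Matrix Cfsg.Agent.H84.PslDefs

/-- A nontrivial normal subgroup of a finite `p`-group contains a nontrivial central element. -/
theorem exists_central {P : Type*} [Group P] [Finite P] {p : ℕ} [Fact p.Prime] (hP : IsPGroup p P)
    (N : Subgroup P) [N.Normal] (hN : N ≠ ⊥) : ∃ z ∈ N, z ≠ 1 ∧ ∀ g : P, g * z = z * g := by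
  have hPc : IsPGroup p (ConjAct P) := hP.of_equiv ConjAct.toConjAct
  have hdvd : p ∣ Nat.card N := by
    rcases (hP.to_subgroup N).card_eq_or_dvd with h | h
    · exact absurd (Subgroup.card_eq_one.mp h) hN
    · exact h
  have h1 : (1 : N) ∈ MulAction.fixedPoints (ConjAct P) N := by
    intro g
    exact smul_one g
  obtain ⟨b, hb, hb1⟩ := hPc.exists_fixed_point_of_prime_dvd_card_of_fixed_point N hdvd h1
  refine ⟨b, b.2, fun h => hb1 (Subtype.ext h.symm), fun g => ?_⟩
  have h2 := congrArg Subtype.val (hb (ConjAct.toConjAct g))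
  rw [ConjAct.Subgroup.val_conj_smul, ConjAct.smul_def, ConjAct.ofConjAct_toConjAct] at h2
  calc g * b = g * b * g⁻¹ * g := by group
    _ = b * g := by rw [h2]

/-- upper root elements are unitriangular -/
theorem transvection_mem_Uni (n : ℕ) (K : Type*) [Field K] {a b : Fin n} (hab : a < b) (c : K) :
    Matrix.SpecialLinearGroup.transvection (ne_of_lt hab) c ∈ Uni n K := by
  rw [mem_Uni]
  refine ⟨fun i j hji => ?_, fun i => ?_⟩
  · show (1 + Matrix.single a b c : Matrix (Fin n) (Fin n) K) i j = 0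
    rw [Matrix.add_apply, Matrix.one_apply_ne (ne_of_gt hji), zero_add]
    apply Matrix.single_apply_of_ne
    rintro ⟨rfl, rfl⟩
    exact absurd hab (not_lt.mpr hji.le)
  · show (1 + Matrix.single a b c : Matrix (Fin n) (Fin n) K) i i = 1
    rw [Matrix.add_apply, Matrix.one_apply_eq]
    have : Matrix.single a b c i i = 0 := by
      apply Matrix.single_apply_of_ne
      rintro ⟨rfl, h⟩
      exact absurd h.symm (ne_of_lt hab).symm.symm
    rw [this, add_zero]

/-- unitriangular matrices have `p`-power order -/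
theorem uni_pow (n : ℕ) (K : Type*) [Field K] (p : ℕ) [Fact p.Prime] [CharP K p]
    (u : Matrix.SpecialLinearGroup (Fin n) K) (hu : u ∈ Uni n K) : ∃ k : ℕ, u ^ p ^ k = 1 := by
  rcases Nat.eq_zero_or_pos n with rfl | hn
  · exact ⟨0, Subsingleton.elim _ _⟩
  haveI : Nonempty (Fin n) := ⟨⟨0, hn⟩⟩
  obtain ⟨k, hk⟩ := Cfsg.Agent.Lib.Helper18.Conj.unipotent_of_utri (F := K) (lam := lamU n)
    (M := (u : Matrix (Fin n) (Fin n) K)) hu
  refine ⟨k, ?_⟩
  have h1 : ((u : Matrix (Fin n) (Fin n) K) - 1 + 1) ^ p ^ k =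
      ((u : Matrix (Fin n) (Fin n) K) - 1) ^ p ^ k + 1 ^ p ^ k :=
    add_pow_char_pow_of_commute p k (Commute.one_right _)
  rw [sub_add_cancel, one_pow] at h1
  have h2 : ((u : Matrix (Fin n) (Fin n) K) - 1) ^ p ^ k = 0 := by
    have hle : k ≤ p ^ k := (Nat.lt_pow_self (Fact.out : p.Prime).one_lt).le
    rw [← Nat.sub_add_cancel hle, pow_add, hk, mul_zero]
  rw [h2, zero_add] at h1
  have h3 : ((u ^ p ^ k : Matrix.SpecialLinearGroup (Fin n) K) : Matrix (Fin n) (Fin n) K) =
      ((1 : Matrix.SpecialLinearGroup (Fin n) K) : Matrix (Fin n) (Fin n) K) := by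
    rw [Matrix.SpecialLinearGroup.coe_pow, Matrix.SpecialLinearGroup.coe_one, h1]
  exact Subtype.ext h3

/-- a central unitriangular matrix is the identity -/
theorem uni_center (n : ℕ) (K : Type*) [Field K] (u : Matrix.SpecialLinearGroup (Fin n) K)
    (hu : u ∈ Uni n K) (hc : u ∈ Subgroup.center (Matrix.SpecialLinearGroup (Fin n) K)) : u = 1 := by
  obtain ⟨r, -, hr⟩ := Matrix.SpecialLinearGroup.mem_center_iff.mp hc
  have hu' := (mem_Uni n K u).mp hu
  ext i j
  have h := congrFun (congrFun hr i) j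
  by_cases hij : i = j
  · subst hij
    rw [hu'.2 i]; simp
  · rw [← h]
    simp [Matrix.scalar_apply, Matrix.diagonal_apply_ne _ hij, Matrix.one_apply_ne hij]

theorem main : Cfsg.Agent.H84.PslStmt.MeetsZbar := by
  intro n K _ _ p _ _ T hT hT1 hTn
  let N : Subgroup ↥(Uni n K) := (T.comap (proj n K)).subgroupOf (Uni n K)
  have hUp : IsPGroup p ↥(Uni n K) := fun u => by
    obtain ⟨k, hk⟩ := uni_pow n K p u.1 u.2
    exact ⟨k, Subtype.ext (by simpa using hk)⟩
  haveI : Finite (Matrix.SpecialLinearGroup (Fin n) K) :=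
    Finite.of_injective (fun g : Matrix.SpecialLinearGroup (Fin n) K => (g : Matrix (Fin n) (Fin n) K))
      Subtype.val_injective
  haveI : N.Normal := by
    refine ⟨fun x hx g => ?_⟩
    show proj n K ((g * x * g⁻¹ : ↥(Uni n K)) : Matrix.SpecialLinearGroup (Fin n) K) ∈ T
    have hx' : proj n K (x : Matrix.SpecialLinearGroup (Fin n) K) ∈ T := hx
    have := hTn (proj n K g) (Subgroup.mem_map_of_mem _ g.2) _ hx'
    simpa using this
  have hN : N ≠ ⊥ := by
    intro hbot
    apply hT1
    rw [Subgroup.eq_bot_iff_forall]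
    intro t ht
    obtain ⟨u, hu, rfl⟩ := hT ht
    have hmem : (⟨u, hu⟩ : ↥(Uni n K)) ∈ N := ht
    rw [hbot, Subgroup.mem_bot] at hmem
    have : u = 1 := congrArg Subtype.val hmem
    rw [this, map_one]
  obtain ⟨z, hzN, hz1, hzc⟩ := exists_central hUp N hN
  have hzU : (z : Matrix.SpecialLinearGroup (Fin n) K) ∈ Uni n K := z.2
  have hzU' := (mem_Uni n K z).mp hzU
  -- commutation with root elements
  have hcomm : ∀ (a b : Fin n) (hab : a < b),
      Matrix.single a b (1 : K) * (z : Matrix (Fin n) (Fin n) K) =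
        (z : Matrix (Fin n) (Fin n) K) * Matrix.single a b (1 : K) := by
    intro a b hab
    have h := hzc ⟨_, transvection_mem_Uni n K hab 1⟩
    have h' : (Matrix.SpecialLinearGroup.transvection (ne_of_lt hab) (1 : K) : Matrix (Fin n) (Fin n) K) *
        (z : Matrix (Fin n) (Fin n) K) = (z : Matrix (Fin n) (Fin n) K) *
        (Matrix.SpecialLinearGroup.transvection (ne_of_lt hab) (1 : K) : Matrix (Fin n) (Fin n) K) := by
      have := congrArg (fun w : ↥(Uni n K) =>
        ((w : Matrix.SpecialLinearGroup (Fin n) K) : Matrix (Fin n) (Fin n) K)) h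
      simpa using this
    rw [Matrix.SpecialLinearGroup.transvection_coe, add_mul, mul_add, one_mul, mul_one] at h'
    exact add_left_cancel h'
  refine ⟨proj n K z, hzN, Subgroup.mem_map_of_mem _ ⟨?_, ?_⟩, ?_⟩
  · -- in `V1`
    show (z : Matrix.SpecialLinearGroup (Fin n) K) ∈ V1 n K
    rw [mem_V1]
    refine ⟨fun i j hij hi => ?_, hzU'.2⟩
    have hpos : 0 < n := lt_of_le_of_lt (Nat.zero_le _) i.2
    have h0i : (⟨0, hpos⟩ : Fin n) < i := by
      show 0 < i.val
      omega
    have h := congrFun (congrFun (hcomm ⟨0, hpos⟩ i h0i) ⟨0, hpos⟩) j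
    rw [Matrix.single_mul_apply_same, one_mul,
      Matrix.mul_single_apply_of_ne _ _ _ _ _ (Ne.symm hij)] at h
    exact h
  · -- in `V2`
    show (z : Matrix.SpecialLinearGroup (Fin n) K) ∈ V2 n K
    rw [mem_V2]
    refine ⟨fun i j hij hj => ?_, hzU'.2⟩
    have hpos : n - 1 < n := by have := j.2; omega
    have hjl : j < (⟨n - 1, hpos⟩ : Fin n) := by
      show j.val < n - 1
      have := j.2; omega
    have h := congrFun (congrFun (hcomm j ⟨n - 1, hpos⟩ hjl) i) ⟨n - 1, hpos⟩
    rw [Matrix.single_mul_apply_of_ne _ _ _ _ _ hij, Matrix.mul_single_apply_same, mul_one] at h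
    exact h.symm
  · intro h
    apply hz1
    have hker : (z : Matrix.SpecialLinearGroup (Fin n) K) ∈ (proj n K).ker := h
    rw [ker_proj] at hker
    exact Subtype.ext (uni_center n K z hzU hker)

end Cfsg.Agent.H84.PslP3
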