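import Cfsg.Agent.S5160
import Cfsg.Agent.H85.GroupFS2
import Cfsg.Agent.H84.PslStmt
import Cfsg.Agent.H84.PslP3
import Cfsg.Agent.Lib.Helper14.PslP5a
import Cfsg.Agent.Lib.Helper14.PslP6a
import Cfsg.Agent.Lib.Helper15.PslP4
import Cfsg.Agent.Lib.Helper23.PslF1
import Cfsg.Agent.Lib.Helper23.PslF2
import Cfsg.Agent.Lib.Helper47.PslA3
import Cfsg.Agent.Lib.Helper52.PslP7a
import Cfsg.Agent.Lib.Helper52.PslP7c
import Cfsg.Agent.Lib.Helper72.PslP5b
import Cfsg.Agent.Lib.Helper72.PslP6b
import Cfsg.Agent.Lib.Helper96.PslF3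
import Cfsg.Agent.Lib.Helper96.PslP5c
import Cfsg.Agent.Lib.Helper96.PslP6c
import Cfsg.Agent.Lib.Helper97.PslP1
import Cfsg.Agent.Lib.Helper97.PslP2

set_option autoImplicit false

/-!
# S5163: the defining-characteristic fusion system of `PSL_n(K)`, `n ≥ 3`, is simple (assembly)
-/

namespace Cfsg.Agent.H84.Psl

open Cfsg Cfsg.FusionSystem Cfsg.Agent.H84.PslDefs Matrix

/-- a strongly closed subgroup of a group fusion system is closed under `G`-conjugation inside
`S` -/
theorem sc_conj {G : Type*} [Group G] {S T : Subgroup G}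
    (hT : (groupFusionSystem S).StronglyClosed T) {t g : G} (ht : t ∈ T)
    (hg : g * t * g⁻¹ ∈ S) : g * t * g⁻¹ ∈ T := by
  obtain ⟨hTS, hcl⟩ := hT
  have hR : Subgroup.zpowers t ≤ T := by
    rw [Subgroup.zpowers_le]; exact ht
  let φ : ↥(Subgroup.zpowers t) →* G :=
    ((MulAut.conj g).toMonoidHom).comp (Subgroup.zpowers t).subtype
  have hφ : φ ∈ (groupFusionSystem S).Hom (Subgroup.zpowers t) := by
    refine ⟨hR.trans hTS, ?_, g, fun x => rfl⟩
    rintro ⟨x, hx⟩
    obtain ⟨k, rfl⟩ := Subgroup.mem_zpowers_iff.mp hx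
    show g * t ^ k * g⁻¹ ∈ S
    have : g * t ^ k * g⁻¹ = (g * t * g⁻¹) ^ k := by
      rw [conj_zpow]
    rw [this]
    exact S.zpow_mem hg k
  exact hcl _ hR φ hφ ⟨t, Subgroup.mem_zpowers t⟩

/-- the abstract data make the fusion system simple -/
theorem simple_of_data {G : Type*} [Group G] [Finite G] (p : ℕ) [Fact p.Prime]
    {S₀ Z : Subgroup G} {X : Set G} {ℛ : Set (Subgroup G)} (h : SimpleData p S₀ Z X ℛ)
    (S : Sylow p G) (hS : (S : Subgroup G) = S₀) :
    (groupFusionSystem (S : Subgroup G)).IsSimple p := by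
  subst hS
  have hSp : IsPGroup p (S : Subgroup G) := S.isPGroup'
  refine Cfsg.Agent.S5160.result p S h.ne_bot ?_ ?_
  · -- no proper nontrivial strongly closed subgroup
    intro T hT
    by_cases hT1 : T = ⊥
    · exact Or.inl hT1
    right
    have hTS : T ≤ (S : Subgroup G) := hT.1
    have hTn : ∀ s ∈ (S : Subgroup G), ∀ t ∈ T, s * t * s⁻¹ ∈ T := by
      intro s hs t ht
      exact sc_conj hT ht ((S : Subgroup G).mul_mem ((S : Subgroup G).mul_mem hs (hTS ht))
        ((S : Subgroup G).inv_mem hs))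
    obtain ⟨z, hzT, hzZ, hz1⟩ := h.meets T hTS hT1 hTn
    refine le_antisymm hTS ?_
    rw [← h.gen, Subgroup.closure_le]
    intro x hx
    obtain ⟨g, rfl⟩ := h.conj z hzZ hz1 x hx
    have hxS : g * z * g⁻¹ ∈ (S : Subgroup G) := by
      rw [← h.gen]; exact Subgroup.subset_closure hx
    exact sc_conj hT hzT hxS
  · -- generation of `Aut_G(S)`
    apply le_antisymm
    · intro α hα
      rw [Cfsg.Agent.H85.mem_autInducedBy_iff] at hα
      obtain ⟨g, -, hgα⟩ := hα
      have hgN : g ∈ Subgroup.normalizer ((S : Subgroup G) : Set G) := by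
        rw [Subgroup.mem_normalizer_iff]
        intro y
        constructor
        · intro hy
          have := hgα ⟨y, hy⟩
          rw [← this]; exact (α ⟨y, hy⟩).2
        · intro hy
          obtain ⟨x, hx⟩ := α.surjective ⟨g * y * g⁻¹, hy⟩
          have h1 := hgα x
          rw [hx] at h1
          have h2 : y = (x : G) := by
            have : g * y * g⁻¹ = g * (x : G) * g⁻¹ := h1
            exact mul_left_cancel (mul_right_cancel this)
          rw [h2]; exact x.2
      set J : Subgroup (MulAut ↥(S : Subgroup G)) :=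
        ⨆ (R : Subgroup G) (_ : (groupFusionSystem (S : Subgroup G)).IsFullyNormalized R ∧
          (groupFusionSystem (S : Subgroup G)).IsRadical p R ∧
          (groupFusionSystem (S : Subgroup G)).IsCentric R),
          autInducedBy (Subgroup.closure {g : G | g ∈ Subgroup.normalizer (R : Set G) ∧
            ∃ k : ℕ, orderOf g = p ^ k}) (S : Subgroup G) with hJ
      have key : ∀ g ∈ Subgroup.closure
          {h' : G | h' ∈ Subgroup.normalizer ((S : Subgroup G) : Set G) ∧ ∃ R ∈ ℛ,
            h' ∈ Subgroup.closure {k : G | k ∈ Subgroup.normalizer (R : Set G) ∧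
              ∃ e : ℕ, orderOf k = p ^ e}},
          ∃ hN : g ∈ Subgroup.normalizer ((S : Subgroup G) : Set G),
            Subgroup.normalizerMonoidHom (S : Subgroup G) ⟨g, hN⟩ ∈ J := by
        intro g hg
        induction hg using Subgroup.closure_induction with
        | mem x hx =>
          obtain ⟨hxN, R, hR, hxK⟩ := hx
          refine ⟨hxN, ?_⟩
          have hfn : (groupFusionSystem (S : Subgroup G)).IsFullyNormalized R :=
            Cfsg.Agent.Lib.Helper23.PslF1.main (S : Subgroup G) R (h.rad_le R hR) (h.rad_normal R hR)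
          have hrad : (groupFusionSystem (S : Subgroup G)).IsRadical p R :=
            Cfsg.Agent.Lib.Helper96.PslF3.main p (S : Subgroup G) R hSp (h.rad_le R hR) (h.rad_comm R hR)
              (h.rad_trans R hR)
          have hcen : (groupFusionSystem (S : Subgroup G)).IsCentric R :=
            Cfsg.Agent.Lib.Helper23.PslF2.main (S : Subgroup G) R (h.rad_le R hR) (h.rad_cent R hR)
          have hmem : Subgroup.normalizerMonoidHom (S : Subgroup G) ⟨x, hxN⟩ ∈
              autInducedBy (Subgroup.closure {g : G | g ∈ Subgroup.normalizer (R : Set G) ∧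
                ∃ k : ℕ, orderOf g = p ^ k}) (S : Subgroup G) := by
            rw [Cfsg.Agent.H85.mem_autInducedBy_iff]
            exact ⟨x, hxK, fun y => rfl⟩
          rw [hJ]
          exact Subgroup.mem_iSup_of_mem R (Subgroup.mem_iSup_of_mem ⟨hfn, hrad, hcen⟩ hmem)
        | one =>
          refine ⟨Subgroup.one_mem _, ?_⟩
          have : (⟨1, Subgroup.one_mem _⟩ :
              ↥(Subgroup.normalizer ((S : Subgroup G) : Set G))) = 1 := rfl
          rw [this, map_one]
          exact J.one_mem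
        | mul a b _ _ iha ihb =>
          obtain ⟨haN, haJ⟩ := iha
          obtain ⟨hbN, hbJ⟩ := ihb
          refine ⟨Subgroup.mul_mem _ haN hbN, ?_⟩
          have : (⟨a * b, Subgroup.mul_mem _ haN hbN⟩ :
              ↥(Subgroup.normalizer ((S : Subgroup G) : Set G))) = ⟨a, haN⟩ * ⟨b, hbN⟩ := rfl
          rw [this, map_mul]
          exact J.mul_mem haJ hbJ
        | inv a _ iha =>
          obtain ⟨haN, haJ⟩ := iha
          refine ⟨Subgroup.inv_mem _ haN, ?_⟩
          have : (⟨a⁻¹, Subgroup.inv_mem _ haN⟩ :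
              ↥(Subgroup.normalizer ((S : Subgroup G) : Set G))) = ⟨a, haN⟩⁻¹ := rfl
          rw [this, map_inv]
          exact J.inv_mem haJ
      obtain ⟨hN, hJg⟩ := key g (h.norm_gen hgN)
      have hα : α = Subgroup.normalizerMonoidHom (S : Subgroup G) ⟨g, hN⟩ := by
        ext y
        exact hgα y
      rw [hα]
      exact hJg
    · refine iSup_le fun R => iSup_le fun _ => ?_
      exact Subgroup.closure_mono fun α ⟨g, _, hg⟩ => ⟨g, Subgroup.mem_top g, hg⟩

/-- the data for `PSL_n(K)` -/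
theorem pslData (n : ℕ) (K : Type*) [Field K] [Fintype K] (p : ℕ) [Fact p.Prime] [CharP K p]
    (hn : 3 ≤ n) :
    SimpleData p (Ubar n K) (Zbar n K) (Xset n K) {R1 n K, R2 n K} := by
  have h1 := Cfsg.Agent.Lib.Helper14.PslP5a.main n K p
  have h2 := Cfsg.Agent.Lib.Helper14.PslP6a.main n K p
  have hsyl := Cfsg.Agent.Lib.Helper97.PslP1.main n K p
  have hUp : IsPGroup p (Ubar n K) := by
    obtain ⟨P, hP⟩ := hsyl.1
    rw [← hP]; exact P.isPGroup'
  have hR1N : ∀ s ∈ Ubar n K, s ∈ Subgroup.normalizer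
      (R1 n K : Set (ProjectiveSpecialLinearGroup (Fin n) K)) := by
    intro s hs
    rw [Subgroup.mem_normalizer_iff]
    intro y
    refine ⟨fun hy => h1.2.1 s hs y hy, fun hy => ?_⟩
    have := h1.2.1 s⁻¹ ((Ubar n K).inv_mem hs) _ hy
    simpa [mul_assoc] using this
  refine
    { sylow := hsyl.1
      ne_bot := hsyl.2 (by omega)
      gen := Cfsg.Agent.Lib.Helper97.PslP2.main n K p
      meets := fun T hT hT1 hTn => Cfsg.Agent.H84.PslP3.main n K p T hT hT1 hTn
      conj := fun z hz hz1 x hx => Cfsg.Agent.Lib.Helper15.PslP4.main n K p hn z hz hz1 x hx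
      rad_le := ?_
      rad_normal := ?_
      rad_comm := ?_
      rad_cent := ?_
      rad_trans := ?_
      norm_gen := ?_ }
  · rintro R (rfl | rfl)
    · exact h1.1
    · exact h2.1
  · rintro R (rfl | rfl)
    · exact h1.2.1
    · exact h2.2.1
  · rintro R (rfl | rfl)
    · exact h1.2.2
    · exact h2.2.2
  · rintro R (rfl | rfl)
    · exact Cfsg.Agent.Lib.Helper72.PslP5b.main n K p hn
    · exact Cfsg.Agent.Lib.Helper72.PslP6b.main n K p hn
  · rintro R (rfl | rfl)
    · exact Cfsg.Agent.Lib.Helper96.PslP5c.main n K p hn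
    · exact Cfsg.Agent.Lib.Helper96.PslP6c.main n K p hn
  · intro g hg
    obtain ⟨t, u, ht, hu, rfl⟩ := Cfsg.Agent.Lib.Helper52.PslP7a.main n K p hn g hg
    rw [map_mul]
    refine Subgroup.mul_mem _ (Cfsg.Agent.Lib.Helper52.PslP7c.main n K p hn t ht) (Subgroup.subset_closure ?_)
    have huU : proj n K u ∈ Ubar n K := Subgroup.mem_map_of_mem _ hu
    refine ⟨Subgroup.le_normalizer huU, R1 n K, Or.inl rfl, Subgroup.subset_closure ⟨hR1N _ huU, ?_⟩⟩
    obtain ⟨e, he⟩ := (IsPGroup.iff_orderOf.mp hUp) ⟨proj n K u, huU⟩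
    refine ⟨e, ?_⟩
    rw [← he, Subgroup.orderOf_mk]

/-- S5163 -/
theorem main {K : Type*} [Field K] [Fintype K] (p : ℕ) [Fact p.Prime] [CharP K p] (n : ℕ)
    (hn : 3 ≤ n) (S : Sylow p (ProjectiveSpecialLinearGroup (Fin n) K)) :
    (groupFusionSystem (S : Subgroup (ProjectiveSpecialLinearGroup (Fin n) K))).IsSimple p := by
  have hdata := pslData n K p hn
  obtain ⟨P, hP⟩ := hdata.sylow
  obtain ⟨g, hg⟩ := MulAction.exists_smul_eq (ProjectiveSpecialLinearGroup (Fin n) K) P S
  have hdata' := Cfsg.Agent.Lib.Helper47.PslA3.main hdata g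
  refine simple_of_data p hdata' S ?_
  rw [← hg, ← hP]
  rfl

end Cfsg.Agent.H84.Psl
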