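import Mathlib
import Cfsg.Prelude.Def_RootSubgroups

set_option autoImplicit false

namespace Cfsg.Agent.H84

open Cfsg

variable {G : Type*} [Group G]

theorem mem_conjBy_iff (A : Subgroup G) (g x : G) : x ∈ conjBy A g ↔ g⁻¹ * x * g ∈ A := by
  constructor
  · rintro ⟨y, hy, rfl⟩
    have : g⁻¹ * ((MulAut.conj g).toMonoidHom y) * g = y := by
      show g⁻¹ * (g * y * g⁻¹) * g = y
      group
    rw [this]
    exact hy
  · intro h
    refine ⟨g⁻¹ * x * g, h, ?_⟩
    show g * (g⁻¹ * x * g) * g⁻¹ = x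
    group

theorem conjBy_of_mem {A : Subgroup G} {g : G} (hg : g ∈ A) : conjBy A g = A := by
  ext x
  rw [mem_conjBy_iff]
  constructor
  · intro h
    have : x = g * (g⁻¹ * x * g) * g⁻¹ := by group
    rw [this]
    exact A.mul_mem (A.mul_mem hg h) (A.inv_mem hg)
  · intro h
    exact A.mul_mem (A.mul_mem (A.inv_mem hg) h) hg

theorem conjBy_conjBy (A : Subgroup G) (g h : G) : conjBy (conjBy A g) h = conjBy A (h * g) := by
  ext x
  simp only [mem_conjBy_iff]
  have : g⁻¹ * (h⁻¹ * x * h) * g = (h * g)⁻¹ * x * (h * g) := by group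
  rw [this]

theorem conjBy_one (A : Subgroup G) : conjBy A 1 = A := conjBy_of_mem A.one_mem

theorem conjBy_eq_bot_iff (A : Subgroup G) (g : G) : conjBy A g = ⊥ ↔ A = ⊥ := by
  constructor
  · intro h
    have h2 : conjBy (conjBy A g) g⁻¹ = conjBy ⊥ g⁻¹ := by rw [h]
    rw [conjBy_conjBy, inv_mul_cancel, conjBy_one] at h2
    rw [h2]
    exact Subgroup.map_bot _
  · rintro rfl
    exact Subgroup.map_bot _

theorem map_conjBy {H : Type*} [Group H] (f : G →* H) (A : Subgroup G) (g : G) :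
    (conjBy A g).map f = conjBy (A.map f) (f g) := by
  ext x
  constructor
  · rintro ⟨_, ⟨y, hy, rfl⟩, rfl⟩
    refine ⟨f y, ⟨y, hy, rfl⟩, ?_⟩
    show f g * f y * (f g)⁻¹ = f (g * y * g⁻¹)
    simp
  · rintro ⟨_, ⟨y, hy, rfl⟩, rfl⟩
    refine ⟨g * y * g⁻¹, ⟨y, hy, rfl⟩, ?_⟩
    show f (g * y * g⁻¹) = f g * f y * (f g)⁻¹
    simp

/-- The image of a rank one pair under a homomorphism is a rank one pair, unless the images coincide. -/
theorem rankOnePair_map {H : Type*} [Group H] (f : G →* H) {A B : Subgroup G}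
    (h : IsRankOnePair A B) : A.map f = B.map f ∨ IsRankOnePair (A.map f) (B.map f) := by
  by_cases heq : A.map f = B.map f
  · exact Or.inl heq
  right
  have key : ∀ {A B : Subgroup G}, A.map f ≠ B.map f → RankOneCondition A B →
      RankOneCondition (A.map f) (B.map f) := by
    intro A B hne hc a' ha' ha'1
    obtain ⟨a, ha, rfl⟩ := ha'
    have ha1 : a ≠ 1 := by
      rintro rfl
      exact ha'1 (map_one f)
    obtain ⟨b, hb, hb1, hab⟩ := hc a ha ha1
    have e : conjBy (A.map f) (f b)⁻¹ = conjBy (B.map f) (f a)⁻¹ := by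
      rw [← map_inv, ← map_inv, ← map_conjBy, ← map_conjBy, hab]
    refine ⟨f b, ⟨b, hb, rfl⟩, ?_, e⟩
    intro hfb
    apply hne
    rw [hfb, inv_one, conjBy_one] at e
    have e2 : conjBy (A.map f) (f a) = conjBy (conjBy (B.map f) (f a)⁻¹) (f a) := by rw [← e]
    rw [conjBy_conjBy, mul_inv_cancel, conjBy_one,
      conjBy_of_mem (Subgroup.mem_map_of_mem f ha)] at e2
    exact e2
  have := h.nilpotent_left
  have := h.nilpotent_right
  exact ⟨heq, Group.nilpotent_of_surjective (f.subgroupMap A) (f.subgroupMap_surjective A),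
    Group.nilpotent_of_surjective (f.subgroupMap B) (f.subgroupMap_surjective B),
    key heq h.cond_left, key (Ne.symm heq) h.cond_right⟩

end Cfsg.Agent.H84
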